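import Cfsg.Agent.R2.T1.T2p.T2f
import Cfsg.Agent.R2.T1.T2p.T3n
import Cfsg.Agent.R2.T1.Pat2.Ct
import Cfsg.Agent.R2.T1.B2.B20
import Cfsg.Agent.R2.T1.B2.Card
import Cfsg.Agent.R2.T1.B2.Emb
import Cfsg.Agent.R2.T1.B2.Le14
import Cfsg.Agent.R2.T1.B2.T29
import Cfsg.Agent.R2.T1.B2.Ts2
import Cfsg.Agent.R2.T1.Nodd.Fin

/-!
# T1 (S5771): characteristic 2, `n ≥ 9` (helper25)

* `big2`.
-/

set_option autoImplicit false

namespace Cfsg.Agent.R2.T1.T2p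

open Cfsg Cfsg.Lie Module Equiv Equiv.Perm
open Cfsg.Agent.H943.E7V.Block (D1)
open Cfsg.Agent.H952.F4 (ev es MaxAlt)
open Cfsg.Agent.R2.T1 Cfsg.Agent.R2.T1.Odd Cfsg.Agent.R2.T1.Pat2 Cfsg.Agent.R2.T1.B2

universe u

/-- **characteristic 2, `n ≥ 9`** -/
theorem big2 {F : Type u} [Field F] [Finite F] {n : ℕ} {H : Subgroup ↥(chevE7.group F)}
    {φ : ↥(alternatingGroup (Fin n)) →* ↥(chevE7.group F)} {ψ : ↥(alternatingGroup (Fin n)) →* Gh F} (h9 : 9 ≤ n)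
    (hM : MaxAlt H n φ) (hL : Lift φ ψ) (h2 : (2 : F) = 0) : False := by
  have : NeZero n := ⟨by omega⟩
  have hinj := Nodd.lift_inj hM hL
  have hψ : Function.Injective ψ := (injective_iff_map_eq_one ψ).2 fun a ha => hinj a (by rw [ha, map_one])
  have h5F : (5 : F) ≠ 0 := fun h => one_ne_zero (α := F) (by linear_combination h - 2 * h2)
  have h14 : n ≤ 14 := le14 h5F hψ
  have hfix := no_fixed hM (by omega) h14 hL
  obtain ⟨⟨h5, -⟩, h⟩ := pat2 (n := n) (by omega) h2 hψ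
  rcases h with ⟨⟨h3, -⟩, ⟨h33, -⟩, h7, h53⟩ | ⟨⟨h3, -⟩, ⟨h33, -⟩, h7, h53⟩
  · rcases h53 with h53 | h53
    · exact noT1 h9 h2 h3 h33 h5 h53
    · rcases h7 with h7 | h7 | h7
      · exact noT1x (by omega) h2 h3 h33 h7 h53
      · exact Msk.t3_false h2 hinj h9 hfix h3 h33 h5 h7 h53
      · exact no20 (by omega) h2 h3 h33 h7 hfix
  · by_cases h10 : 10 ≤ n
    · refine t2_false h2 h10 hM hL hinj h3 h33 h5 ?_ (fun hn => card_lt (by omega) hn hM)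
        (fun hn S hS h0 hs => ts2 h2 hM.coatom (not_dvd (by omega) hn hM) hS h0 hs)
      intro a ha
      rcases h53 with h53 | h53
      · rw [h53 a ha]; norm_num
      · rw [h53 a ha]
    · obtain rfl : n = 9 := by omega
      exact noT2_9 hM hL h33 h7

end Cfsg.Agent.R2.T1.T2p
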